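import Cfsg.Agent.H124.SpecExc
import Cfsg.Agent.H679.LieAlt
import Cfsg.Agent.H679.SporOut
import Cfsg.Agent.H679.SporOutBig
import Cfsg.Agent.H67.SzOdd
import Cfsg.Agent.H129.TwD4Cyc
import Cfsg.Agent.H484.CritFinal
import Cfsg.Agent.OrdDiv.Table

/-!
# A special prime for the alternating and sporadic groups, `Sz(q)` and `³D₄(q)`; all simple groups (helper124)

* `sp_known` : every nonabelian known finite simple group has an odd prime divisor `p` of its order, prime to the order of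
  its outer automorphism group, with cyclic Sylow `p`-subgroups.
-/

set_option autoImplicit false

namespace Cfsg.Agent.H124.Spec

open Subgroup Cfsg Cfsg.Agent.H484.SylNorm Cfsg.Agent.H679

universe u

/-- odd primes do not divide `|Out K|` if `Out K` is a `2`-group -/
theorem not_dvd_of_outTwo {K : Type*} [Group K] [Finite K] (h : OutTwo K) {p : ℕ} (hp : p.Prime) (hp2 : p ≠ 2) :
    ¬ p ∣ (MulAut.conj : K →* MulAut K).range.index := by
  intro hd
  have hn := conj_range_normal' K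
  have := Fact.mk hp
  obtain ⟨x, hx⟩ := exists_prime_orderOf_dvd_card' (G := MulAut K ⧸ (MulAut.conj : K →* MulAut K).range) p hd
  obtain ⟨α, rfl⟩ := QuotientGroup.mk_surjective x
  obtain ⟨n, hn⟩ := h α
  have h1 : (α : MulAut K ⧸ (MulAut.conj : K →* MulAut K).range) ^ 2 ^ n = 1 := by
    rw [← QuotientGroup.mk_pow]
    exact (QuotientGroup.eq_one_iff _).2 hn
  have h2 := orderOf_dvd_of_pow_eq_one h1
  rw [hx] at h2
  have h3 := (Nat.prime_dvd_prime_iff_eq hp Nat.prime_two).1 (hp.dvd_of_dvd_pow h2)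
  exact hp2 h3

theorem sp_of_outTwo {K : Type*} [Group K] [Finite K] (h : OutTwo K) {p : ℕ} (hp : p.Prime) (hp2 : p ≠ 2)
    (h1 : p ∣ Nat.card K) (h2 : ¬ p ^ 2 ∣ Nat.card K) : SP K := by
  have := Fact.mk hp
  exact ⟨p, hp, hp2, h1, fun P => isCyclic_sylow h2 P, not_dvd_of_outTwo h hp hp2⟩

theorem sp_alt {n : ℕ} (hn : 5 ≤ n) (h6 : n ≠ 6) : SP ↥(alternatingGroup (Fin n)) := by
  obtain ⟨p, hp, h1, h2⟩ := Nat.exists_prime_lt_and_le_two_mul (n / 2) (by omega)
  have hpn : p ≤ n := by omega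
  have hn2 : n < 2 * p := by omega
  have hp3 : 3 ≤ p := by omega
  have := Fact.mk hp
  have hnt : Nontrivial (Fin n) := Fin.nontrivial_iff_two_le.2 (by omega)
  have hcard : 2 * Nat.card (alternatingGroup (Fin n)) = n.factorial := by
    rw [two_mul_nat_card_alternatingGroup, Nat.card_perm, Nat.card_fin]
  refine sp_of_outTwo (outTwo_alt hn h6) hp (by omega) ?_ ?_
  · have h3 : p ∣ 2 * Nat.card (alternatingGroup (Fin n)) := by
      rw [hcard]; exact hp.dvd_factorial.mpr hpn
    rw [hp.dvd_mul] at h3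
    rcases h3 with h3 | h3
    · have := Nat.le_of_dvd two_pos h3
      omega
    · exact h3
  · intro h3
    have h4 : p ^ 2 ∣ n.factorial := by
      rw [← hcard]; exact Dvd.dvd.mul_left h3 2
    have h5 : 2 ≤ n.factorial.factorization p :=
      (hp.pow_dvd_iff_le_factorization (Nat.factorial_ne_zero n)).mp h4
    rw [Nat.factorization_factorial hp (b := 2) (Nat.log_lt_of_lt_pow (by omega) (by nlinarith))] at h5
    have h6 : n / p = 1 := by
      rw [Nat.div_eq_iff (by omega)]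
      omega
    rw [show Finset.Ico 1 2 = {1} from rfl, Finset.sum_singleton, pow_one, h6] at h5
    omega

theorem sp_spor (T : Cfsg.Agent.OrdDiv.OrderTable.{u}) {K : Type u} [Group K] [Finite K] (h : OutTwo K)
    (g : Cfsg.Agent.OrdDiv.Grp)
    (hg : g ∈ Cfsg.Agent.OrdDiv.spor.map fun x => x.1) (hK : Cfsg.Agent.OrdDiv.Real g K) : SP K := by
  obtain ⟨x, hx, rfl⟩ := List.mem_map.mp hg
  have h1 := T.spor K x hx hK
  obtain ⟨p, hp, h2, h3⟩ := spor_prime x hx
  have hpp : p.Prime := by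
    simp only [List.mem_cons, List.not_mem_nil, or_false] at hp
    rcases hp with rfl | rfl | rfl | rfl | rfl | rfl <;> norm_num
  have hp2 : p ≠ 2 := by
    rintro rfl
    simp at hp
  refine sp_of_outTwo h hpp hp2 ?_ ?_
  · rw [h1]; exact Nat.dvd_of_mod_eq_zero h2
  · rw [h1]
    intro h4
    exact h3 (Nat.mod_eq_zero_of_dvd h4)

theorem sp_sz (T : Cfsg.Agent.OrdDiv.OrderTable.{u}) (O : OutTable) (F : Type) [Field F] [Fintype F] (m : ℕ)
    (hm : 1 ≤ m) (hF : Fintype.card F = 2 ^ (2 * m + 1)) : SP ↥(Lie.Sz F (2 ^ (m + 1))) := by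
  have ho := O.sz F m hm hF
  have hcard := T.sz F m hm hF
  obtain ⟨p, h⟩ := exists_zs Nat.prime_two (f := 2 * m + 1) (by omega) (e := 4) (by omega) (by omega)
  have := Fact.mk h.prime
  have h5 := h.five
  refine sp_of_out h.prime h.five ?_ (fun P => H67.SzOdd.sylow_cyclic hm hF (by omega) P) ?_
  · rw [hcard]
    exact Dvd.dvd.mul_left (h.dvd_add (by norm_num) (by norm_num)) _
  · rw [ho]
    exact h.ndvd

/-- a cyclic subgroup of index prime to `p` -/
theorem cyc_of_index {K : Type*} [Group K] [Finite K] {p : ℕ} [hp : Fact p.Prime] {H : Subgroup K} (hH : IsCyclic H)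
    (hi : ¬ p ∣ H.index) (P : Sylow p K) : IsCyclic P := by
  obtain ⟨Q⟩ : Nonempty (Sylow p H) := inferInstance
  have h1 : IsPGroup p ((Q : Subgroup H).map H.subtype) := Q.isPGroup'.map _
  have h2 : ¬ p ∣ ((Q : Subgroup H).map H.subtype).index := by
    rw [Subgroup.index_map_subtype, hp.out.dvd_mul]
    rintro (h | h)
    · exact Q.not_dvd_index h
    · exact hi h
  let R : Sylow p K := h1.toSylow h2
  have h3 : IsCyclic R := by
    have h4 : IsCyclic (Q : Subgroup H) := Subgroup.isCyclic _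
    exact isCyclic_of_surjective ((Q : Subgroup H).equivMapOfInjective H.subtype H.subtype_injective).toMonoidHom
      ((Q : Subgroup H).equivMapOfInjective H.subtype H.subtype_injective).surjective
  exact isCyclic_of_surjective (R.equiv P).toMonoidHom (R.equiv P).surjective

theorem sp_td4 (T : Cfsg.Agent.OrdDiv.OrderTable.{u}) (O : OutTable) (K : Type) [Field K] [Fintype K] (q : ℕ)
    (hq : IsPrimePow q) (hK : Fintype.card K = q ^ 3) : SP ↥(Lie.twistedD4 K q) := by
  obtain ⟨r, f, hr, hc, hf, hF⟩ := exists_char K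
  obtain ⟨r', f', hr', hf', rfl⟩ := (isPrimePow_nat_iff _).mp hq
  have hrr : r' = r := by
    have h1 : r' ∣ r ^ f := by
      rw [← hF, hK, ← pow_mul]
      exact dvd_pow_self _ (by omega)
    exact (Nat.prime_dvd_prime_iff_eq hr' hr.out).mp (hr'.dvd_of_dvd_pow h1)
  subst hrr
  have ho := O.td4 K r' f' (by rw [hK, ← pow_mul, mul_comm]) hf'
  have hcard := T.td4 K (r' ^ f') hq hK
  obtain ⟨p, h⟩ := exists_zs hr' hf' (e := 12) (by omega) (by omega)
  have := Fact.mk h.prime
  set x := r' ^ f' with hx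
  obtain ⟨H, hH, hHc, -⟩ := Cfsg.Agent.H129.TwD4Cyc.coxeter_torus hq hK
  have hx1 : 1 ≤ x := Nat.one_le_pow _ _ hr'.pos
  have hxx : x ^ 2 ≤ x ^ 4 := Nat.pow_le_pow_right hx1 (by norm_num)
  -- the order: `q ^ 8 + q ^ 4 + 1 = (q ^ 4 - q ^ 2 + 1) (q ^ 4 + q ^ 2 + 1)`
  have hfac : x ^ 8 + x ^ 4 + 1 = (x ^ 4 - x ^ 2 + 1) * (x ^ 4 + x ^ 2 + 1) := by
    zify [hxx]
    ring
  have hidx : H.index = x ^ 12 * (x ^ 2 - 1) * (x ^ 6 - 1) * (x ^ 4 + x ^ 2 + 1) := by
    have h1 := H.card_mul_index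
    rw [hHc, hcard, hfac] at h1
    have h2 : 0 < x ^ 4 - x ^ 2 + 1 := Nat.succ_pos _
    apply Nat.eq_of_mul_eq_mul_left h2
    rw [h1]
    ring
  have hnx : ¬ p ∣ x := zs_not_dvd (by norm_num) hx1 h
  have hni : ¬ p ∣ H.index := by
    rw [hidx]
    refine h.ndvd_mul (h.ndvd_mul (h.ndvd_mul (fun h1 => hnx (h.prime.dvd_of_dvd_pow h1)) ?_) ?_) ?_
    · rw [h.iff]; norm_num
    · rw [h.iff]; norm_num
    · intro h1
      have h2 : p ∣ x ^ 6 - 1 := by
        have h3 : x ^ 6 - 1 = (x ^ 4 + x ^ 2 + 1) * (x ^ 2 - 1) := by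
          have h4 : 1 ≤ x ^ 2 := Nat.one_le_pow _ _ hx1
          have h5 : 1 ≤ x ^ 6 := Nat.one_le_pow _ _ hx1
          zify [h4, h5]
          ring
        rw [h3]
        exact Dvd.dvd.mul_right h1 _
      rw [h.iff] at h2
      norm_num at h2
  have hd : p ∣ Nat.card ↥(Lie.twistedD4 K x) := by
    rw [hcard]
    apply Dvd.dvd.mul_left
    have h1 : p ∣ x ^ 12 - 1 := (h.iff 12).mpr dvd_rfl
    have h2 : x ^ 12 - 1 = (x ^ 4 - 1) * (x ^ 8 + x ^ 4 + 1) := by
      have h3 : 1 ≤ x ^ 4 := Nat.one_le_pow _ _ hx1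
      have h4 : 1 ≤ x ^ 12 := Nat.one_le_pow _ _ hx1
      zify [h3, h4]
      ring
    rw [h2, h.prime.dvd_mul] at h1
    rcases h1 with h1 | h1
    · exact absurd ((h.iff 4).mp h1) (by norm_num)
    · exact h1
  refine sp_of_out h.prime h.five hd (fun P => cyc_of_index hH hni P) ?_
  rw [ho]
  exact h.ndvd_mul (h.not_dvd_of_le (by norm_num) (by norm_num)) h.ndvd

/-- **All known simple groups have a special prime.** -/
theorem sp_known {K : Type u} [Group K] [Finite K] (hk : IsKnownSimple' K) (hK : IsSimpleGroup K)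
    (hna : ¬ ∀ a b : K, a * b = b * a) : SP K := by
  have T : Cfsg.Agent.OrdDiv.OrderTable.{u} := Cfsg.Agent.OrdDiv.table
  have O : OutTable := outTable
  have key : ∀ g, g ∈ (Cfsg.Agent.OrdDiv.spor.map fun x => x.1) → Cfsg.Agent.OrdDiv.Real g K → OutTwo K → SP K :=
    fun g hg hr ho => sp_spor T ho g hg hr
  rcases hk with h | h | h | h | h | h | h | h | h | h
  · exfalso
    have : Fact (Nat.card K).Prime := ⟨h⟩
    have : IsCyclic K := isCyclic_of_prime_card (p := Nat.card K) rfl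
    exact hna fun a b => (IsCyclic.isMulCommutative (α := K)).is_comm.comm a b
  · obtain ⟨n, hn, ⟨e⟩⟩ := h
    by_cases h6 : n = 6
    · subst h6
      obtain ⟨F, i1, i2, i3, hc, ⟨f⟩⟩ := alt_six_equiv
      exact sp_of_model hK hna (e.trans f.symm) (sp_psl le_rfl fun _ => by rw [hc]; norm_num)
    · exact SP.congr e (sp_alt hn h6)
  · obtain ⟨F, _, _, n, hn, hn2, ⟨e⟩⟩ := h
    exact sp_of_model hK hna e (sp_psl hn hn2)
  · obtain ⟨F, _, _, n, hn, hn2, ⟨e⟩⟩ := h
    exact sp_of_model hK hna e (sp_psp hn hn2)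
  · obtain ⟨F, _, _, n, q, hF, hn, hn2, ⟨e⟩⟩ := h
    exact sp_of_model hK hna e (sp_psu hF hn hn2)
  · obtain ⟨F, _, _, n, hn, ho, ⟨e⟩⟩ := h
    exact sp_of_model hK hna e (sp_oodd hn ho)
  · obtain ⟨F, _, _, n, hn, ⟨e⟩⟩ := h
    exact sp_of_model hK hna e (sp_oplus hn)
  · obtain ⟨F, _, _, n, a, b, hn, hab, ⟨e⟩⟩ := h
    exact sp_of_model hK hna e (sp_ominus hn hab)
  · rcases h with h | h | h | h | h | h | h | h | h | h | h
    · obtain ⟨F, _, _, hq, ⟨e⟩⟩ := h
      exact SP.congr e (sp_g2 T O F hq)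
    · obtain ⟨F, _, _, ⟨e⟩⟩ := h
      exact SP.congr e (sp_f4 T O F)
    · obtain ⟨F, _, _, ⟨e⟩⟩ := h
      exact SP.congr e (sp_e6 T O F)
    · obtain ⟨F, _, _, ⟨e⟩⟩ := h
      exact SP.congr e (sp_e7 T O F)
    · obtain ⟨F, _, _, ⟨e⟩⟩ := h
      exact SP.congr e (sp_e8 T O F)
    · obtain ⟨F, _, _, q, hq, hF, ⟨e⟩⟩ := h
      exact SP.congr e (sp_te6 T O F q hq hF)
    · obtain ⟨F, _, _, q, hq, hF, ⟨e⟩⟩ := h
      exact SP.congr e (sp_td4 T O F q hq hF)
    · obtain ⟨F, _, _, m, hm, hF, ⟨e⟩⟩ := h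
      exact SP.congr e (sp_sz T O F m hm hF)
    · obtain ⟨F, _, _, m, hm, hF, ⟨e⟩⟩ := h
      exact SP.congr e (sp_ree T O F m hm hF)
    · obtain ⟨F, _, _, m, hm, hF, ⟨e⟩⟩ := h
      exact SP.congr e (sp_tf4 T O F m hm hF)
    · exact key .tits (by decide) h (SporOut.tits h)
  · rcases h with h | h | h | h | h | h | h | h | h | h | h | h | h | h | h | h | h | h | h | h | h | h | h | h | h | h
    · exact key .m11 (by decide) h (SporOut.m11 h)
    · exact key .m12 (by decide) h (SporOut.m12 h)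
    · exact key .m22 (by decide) h (SporOut.m22 h)
    · exact key .m23 (by decide) h (SporOut.m23 h)
    · exact key .m24 (by decide) h (SporOut.m24 h)
    · exact key .j1 (by decide) h (SporOut.j1 h)
    · exact key .j2 (by decide) h (SporOut.j2 h)
    · exact key .j3 (by decide) h (SporOut.j3 h)
    · exact key .j4 (by decide) h (SporOut.j4 h)
    · exact key .co1 (by decide) h (SporOut.co1 h)
    · exact key .co2 (by decide) h (SporOut.co2 h)
    · exact key .co3 (by decide) h (SporOut.co3 h)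
    · exact key .mcl (by decide) h (SporOut.mcl h)
    · exact key .hs (by decide) h (SporOut.hs h)
    · exact key .suz (by decide) h (SporOut.suz h)
    · exact key .he (by decide) h (SporOut.he h)
    · exact key .ru (by decide) h (SporOut.ru h)
    · exact key .on (by decide) h (SporOut.on h)
    · exact key .ly (by decide) h (SporOut.ly h)
    · exact key .fi22 (by decide) h (SporOut.fi22 h)
    · exact key .fi23 (by decide) h (SporOut.fi23 h)
    · exact key .fi24 (by decide) h (SporOut.fi24 h)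
    · exact key .hn (by decide) h (SporOut.hn h)
    · exact key .th (by decide) h (SporOut.th h)
    · exact key .b (by decide) h (SporOut.b h)
    · exact key .m (by decide) h (SporOut.m h)

end Cfsg.Agent.H124.Spec
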