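import Cfsg.Agent.H124.SpecClassical
import Cfsg.Agent.H484.CritTable
import Cfsg.Agent.ChevalleyStructure.Elts
import Cfsg.Agent.S2378

/-!
# A special prime for the exceptional groups (helper124)

From the structure of the Sylow subgroups of the Chevalley groups (S2378); the twisted groups `²E₆(q)`, `²F₄(q)`,
`²G₂(q)`, are subgroups of `E₆(q²)`, `F₄(q)`, `G₂(q)`.
-/

set_option autoImplicit false

namespace Cfsg.Agent.H124.Spec

open Subgroup Cfsg Cfsg.Agent.H484.SylNorm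

universe u

/-- the order of `q` modulo a primitive prime divisor -/
theorem orderOf_zs {q f e p : ℕ} (hq : 0 < q) (h : Zs q f e p) : orderOf (q : ZMod p) = e := by
  have key : ∀ j, orderOf (q : ZMod p) ∣ j ↔ e ∣ j := by
    intro j
    rw [← h.iff, orderOf_dvd_iff_pow_eq_one]
    have h1 : 1 ≤ q ^ j := Nat.one_le_pow _ _ hq
    rw [← ZMod.natCast_eq_zero_iff, Nat.cast_sub h1, Nat.cast_pow, Nat.cast_one, sub_eq_zero]
  exact Nat.dvd_antisymm ((key e).2 dvd_rfl) ((key _).1 dvd_rfl)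

theorem zs_not_dvd {q f e p : ℕ} (he : 0 < e) (hq : 0 < q) (h : Zs q f e p) : ¬ p ∣ q := by
  intro h5
  have h6 : p ∣ q ^ e - 1 := (h.iff e).2 dvd_rfl
  have h7 : p ∣ q ^ e := dvd_pow h5 he.ne'
  have h9 : 1 ≤ q ^ e := Nat.one_le_pow _ _ hq
  have h10 := Nat.dvd_sub h7 h6
  rw [Nat.sub_sub_self h9] at h10
  exact h.prime.one_lt.ne' (Nat.dvd_one.1 h10)

/-- `p = 1` modulo the exponent: `f e < p` -/
theorem exists_zs' {r f e : ℕ} (hr : r.Prime) (hf : 1 ≤ f) (h3 : 3 ≤ f * e)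
    (h6 : ¬ (r = 2 ∧ f * e = 6)) : ∃ p, Zs (r ^ f) f e p ∧ f * e < p := by
  obtain ⟨p, hp, hord⟩ := Cfsg.Agent.Lib.Zsigmondy.exists_prime_orderOf (a := r) (n := f * e) hr.two_le
    (by omega) (by intro h; omega) h6
  have := Fact.mk hp
  have hpr : ¬ p ∣ r := by
    intro h
    rw [← ZMod.natCast_eq_zero_iff] at h
    have h1 := pow_orderOf_eq_one ((r : ZMod p))
    rw [hord, h, zero_pow (by omega)] at h1
    exact zero_ne_one h1
  have hdvd := Cfsg.Agent.Lib.Zsigmondy.orderOf_dvd_pred hp hpr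
  rw [hord] at hdvd
  have hle : f * e ≤ p - 1 := Nat.le_of_dvd (by have := hp.two_le; omega) hdvd
  refine ⟨p, ⟨hp, ?_, ?_, ?_⟩, by omega⟩
  · have h4 : p ≠ 4 := by
      rintro rfl
      norm_num at hp
    omega
  · intro h
    have h1 := Nat.le_of_dvd (by omega) h
    have h2 : f ≤ f * e := Nat.le_mul_of_pos_right f (Nat.pos_of_ne_zero (by rintro rfl; omega))
    omega
  · intro j
    rw [← pow_mul, Cfsg.Agent.Lib.Zsigmondy.dvd_pow_sub_one_iff hr.pos, hord]
    constructor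
    · intro h
      exact Nat.dvd_of_mul_dvd_mul_left (by omega) h
    · intro h
      exact Nat.mul_dvd_mul_left f h

/-- a prime larger than all prime divisors of the degrees -/
theorem not_dvd_prod {p n : ℕ} (hp : p.Prime) (h : 7 < p) (hn : n ∣ 2 ^ 20 * 3 ^ 20 * 5 ^ 20 * 7 ^ 20) : ¬ p ∣ n := by
  intro h1
  have h2 := h1.trans hn
  rw [hp.dvd_mul, hp.dvd_mul, hp.dvd_mul] at h2
  rcases h2 with ((h2 | h2) | h2) | h2
  all_goals
    have h3 := Nat.le_of_dvd (by norm_num) (hp.dvd_of_dvd_pow h2)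
    omega

/-- cyclic Sylow subgroups of subgroups -/
theorem cyc_of_hom {K L : Type*} [Group K] [Group L] [Finite L] {p : ℕ} [hp : Fact p.Prime] (φ : K →* L)
    (hφ : Function.Injective φ) (hL : ∀ P : Sylow p L, IsCyclic P) (P : Sylow p K) : IsCyclic P := by
  have h1 : IsPGroup p ((P : Subgroup K).map φ) := P.isPGroup'.map φ
  obtain ⟨Q, hQ⟩ := h1.exists_le_sylow
  have := hL Q
  let ψ : (P : Subgroup K) →* (Q : Subgroup L) := (φ.comp (P : Subgroup K).subtype).codRestrict _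
    (fun x => hQ ⟨x, x.2, rfl⟩)
  refine isCyclic_of_injective ψ fun a b hab => ?_
  have h2 : φ a = φ b := congrArg Subtype.val hab
  exact Subtype.ext (hφ h2)

section chev

variable {F : Type*} [Field F] [Fintype F]

theorem cyc_chev {q f e p : ℕ} (hq : Fintype.card F = q) (he : 0 < e) (h : Zs q f e p)
    (c : Cfsg.Lie.ChevalleyDatum × List ℕ)
    (hc : c ∈ [(Cfsg.Lie.chevG2, [2, 6]), (Cfsg.Lie.chevB2, [2, 4]), (Cfsg.Lie.chevD4, [2, 4, 4, 6]), (Cfsg.Lie.chevF4, [2, 6, 8, 12]),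
      (Cfsg.Lie.chevE6, [2, 5, 6, 8, 9, 12]), (Cfsg.Lie.chevE7, [2, 6, 8, 10, 12, 14, 18]), (Cfsg.Lie.chevE8, [2, 8, 12, 14, 18, 20, 24, 30])])
    (hW : ¬ p ∣ c.2.prod) (hG : p ∣ Nat.card ↥(c.1.group F)) (h1 : (c.2.filter (fun i => e ∣ i)).length = 1)
    (P : Sylow p ↥(c.1.group F)) : IsCyclic P := by
  have := Fact.mk h.prime
  have hq0 : 0 < q := hq ▸ Fintype.card_pos
  obtain ⟨φ⟩ := S2378.result hq c hc p (zs_not_dvd he hq0 h) hW hG P
  rw [orderOf_zs hq0 h] at φ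
  have h2 : ∀ (n : ℕ) (M : Type) [Group M] [IsCyclic M], n = 1 → IsCyclic (Fin n → M) := by
    rintro n M _ _ rfl
    exact isCyclic_of_surjective (MulEquiv.piUnique (fun _ : Fin 1 => M)).symm.toMonoidHom
      (MulEquiv.piUnique (fun _ : Fin 1 => M)).symm.surjective
  have h3 := h2 _ (Multiplicative (ZMod (p ^ padicValNat p ((Polynomial.cyclotomic e ℤ).eval (q : ℤ)).natAbs))) h1
  exact isCyclic_of_surjective φ.symm.toMonoidHom φ.symm.surjective

open Cfsg.Agent.ChevalleyStructure.Elts in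
theorem genSubgroup_le {D : Lie.ChevalleyDatum} (hD : Cfsg.Agent.ChevalleyStructure.Elts.InList D)
    (S : Set (List (ℕ × F))) : D.genSubgroup F S ≤ D.group F := by
  unfold Lie.ChevalleyDatum.genSubgroup
  rw [Subgroup.closure_le]
  rintro g ⟨l, -, hg⟩
  have h1 : g = wordG hD l := (eq_wordG_iff hD g l).2 hg
  rw [h1]
  exact wordG_mem_group hD l

end chev

theorem sp_of_out {X : Type*} [Group X] {p : ℕ} (hp : p.Prime) (h5 : 5 ≤ p) (hd : p ∣ Nat.card X)
    (hc : ∀ P : Sylow p X, IsCyclic P) (ho : ¬ p ∣ Nat.card (Cfsg.Out X)) : SP X :=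
  ⟨p, hp, by omega, hd, hc, ho⟩

section

variable (T : Cfsg.Agent.OrdDiv.OrderTable.{u}) (O : OutTable)

include T O

theorem sp_g2 (F : Type) [Field F] [Fintype F] (h3 : 3 ≤ Fintype.card F) : SP ↥(Lie.chevG2.group F) := by
  obtain ⟨r, f, hr, hc, hf, hF⟩ := exists_char F
  have ho := O.g2 F r f hF (hF ▸ h3)
  have hcard := T.g2 F
  rw [hF] at hcard h3
  obtain ⟨p, h, hlt⟩ := exists_zs' hr.out hf (e := 6) (by omega) (by
    rintro ⟨rfl, h6⟩
    obtain rfl : f = 1 := by omega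
    norm_num at h3)
  have hd : p ∣ Nat.card ↥(Lie.chevG2.group F) := by
    rw [hcard]
    exact Dvd.dvd.mul_left ((h.iff 6).mpr dvd_rfl) _
  refine sp_of_out h.prime h.five hd (fun P => ?_) ?_
  · refine cyc_chev hF (by norm_num) h (Cfsg.Lie.chevG2, [2, 6]) (by simp) ?_ hd (by decide) P
    intro h1
    have h2 : p ∣ 12 := h1
    have h3 : p ∣ 2 ^ 2 * 3 := h2
    rw [h.prime.dvd_mul] at h3
    rcases h3 with h3 | h3
    · exact h.not_dvd_of_le two_pos (by norm_num) (h.prime.dvd_of_dvd_pow h3)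
    · exact h.not_dvd_of_le (by norm_num) (by norm_num) h3
  · rw [ho]
    split_ifs
    · exact h.ndvd_mul (h.not_dvd_of_le two_pos (by norm_num)) h.ndvd
    · exact h.ndvd

theorem sp_f4 (F : Type) [Field F] [Fintype F] : SP ↥(Lie.chevF4.group F) := by
  obtain ⟨r, f, hr, hc, hf, hF⟩ := exists_char F
  have ho := O.f4 F r f hF
  have hcard := T.f4 F _ hF
  obtain ⟨p, h, hlt⟩ := exists_zs' hr.out hf (e := 12) (by omega) (by omega)
  have hd : p ∣ Nat.card ↥(Lie.chevF4.group F) := by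
    rw [hcard]
    exact Dvd.dvd.mul_left ((h.iff 12).mpr dvd_rfl) _
  refine sp_of_out h.prime h.five hd (fun P => ?_) ?_
  · exact cyc_chev hF (by norm_num) h (Cfsg.Lie.chevF4, [2, 6, 8, 12]) (by simp)
      (not_dvd_prod h.prime (by omega) (by decide)) hd (by decide) P
  · rw [ho]
    exact h.ndvd_mul (fun h1 => h.not_dvd_of_le two_pos (by norm_num) (h1.trans (Nat.gcd_dvd_left _ _))) h.ndvd

theorem sp_e6 (F : Type) [Field F] [Fintype F] : SP ↥(Lie.chevE6.group F) := by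
  obtain ⟨r, f, hr, hc, hf, hF⟩ := exists_char F
  have ho := O.e6 F r f hF
  have hcard := T.e6 F _ hF
  obtain ⟨p, h, hlt⟩ := exists_zs' hr.out hf (e := 12) (by omega) (by omega)
  have hd : p ∣ Nat.card ↥(Lie.chevE6.group F) := by
    refine h.dvd_of_mul (h.not_dvd_gcd (by norm_num) 3) ?_
    rw [hcard]
    exact Dvd.dvd.mul_left ((h.iff 12).mpr dvd_rfl) _
  refine sp_of_out h.prime h.five hd (fun P => ?_) ?_
  · exact cyc_chev hF (by norm_num) h (Cfsg.Lie.chevE6, [2, 5, 6, 8, 9, 12]) (by simp)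
      (not_dvd_prod h.prime (by omega) (by decide)) hd (by decide) P
  · rw [ho]
    exact h.ndvd_mul (h.ndvd_mul (h.not_dvd_of_le two_pos (by norm_num)) (h.not_dvd_gcd (by norm_num) 3)) h.ndvd

theorem sp_e7 (F : Type) [Field F] [Fintype F] : SP ↥(Lie.chevE7.group F) := by
  obtain ⟨r, f, hr, hc, hf, hF⟩ := exists_char F
  have ho := O.e7 F r f hF
  have hcard := T.e7 F _ hF
  obtain ⟨p, h, hlt⟩ := exists_zs' hr.out hf (e := 18) (by omega) (by omega)
  have hd : p ∣ Nat.card ↥(Lie.chevE7.group F) := by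
    refine h.dvd_of_mul (h.not_dvd_gcd (by norm_num) 2) ?_
    rw [hcard]
    exact Dvd.dvd.mul_left ((h.iff 18).mpr dvd_rfl) _
  refine sp_of_out h.prime h.five hd (fun P => ?_) ?_
  · exact cyc_chev hF (by norm_num) h (Cfsg.Lie.chevE7, [2, 6, 8, 10, 12, 14, 18]) (by simp)
      (not_dvd_prod h.prime (by omega) (by decide)) hd (by decide) P
  · rw [ho]
    exact h.ndvd_mul (h.not_dvd_gcd (by norm_num) 2) h.ndvd

theorem sp_e8 (F : Type) [Field F] [Fintype F] : SP ↥(Lie.chevE8.group F) := by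
  obtain ⟨r, f, hr, hc, hf, hF⟩ := exists_char F
  have ho := O.e8 F r f hF
  have hcard := T.e8 F _ hF
  obtain ⟨p, h, hlt⟩ := exists_zs' hr.out hf (e := 30) (by omega) (by omega)
  have hd : p ∣ Nat.card ↥(Lie.chevE8.group F) := by
    rw [hcard]
    exact Dvd.dvd.mul_left ((h.iff 30).mpr dvd_rfl) _
  refine sp_of_out h.prime h.five hd (fun P => ?_) ?_
  · exact cyc_chev hF (by norm_num) h (Cfsg.Lie.chevE8, [2, 8, 12, 14, 18, 20, 24, 30]) (by simp)
      (not_dvd_prod h.prime (by omega) (by decide)) hd (by decide) P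
  · rw [ho]
    exact h.ndvd

theorem sp_te6 (K : Type) [Field K] [Fintype K] (q : ℕ) (hq : IsPrimePow q) (hK : Fintype.card K = q ^ 2) :
    SP ↥(Lie.twistedE6 K q) := by
  obtain ⟨r, f, hr, hc, hf, hF⟩ := exists_char K
  obtain ⟨r', f', hr', hf', rfl⟩ := (isPrimePow_nat_iff _).mp hq
  have hrr : r' = r := by
    have h1 : r' ∣ r ^ f := by
      rw [← hF, hK, ← pow_mul]
      exact dvd_pow_self _ (by omega)
    exact (Nat.prime_dvd_prime_iff_eq hr' hr.out).mp (hr'.dvd_of_dvd_pow h1)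
  subst hrr
  have ho := O.te6 K r' f' (by rw [hK, ← pow_mul, mul_comm]) hf'
  have hcard := T.te6 K (r' ^ f') hq hK
  obtain ⟨p, h, hlt⟩ := exists_zs' hr' hf' (e := 10) (by omega) (by omega)
  have hd : p ∣ Nat.card ↥(Lie.twistedE6 K (r' ^ f')) := by
    refine h.dvd_of_mul (h.not_dvd_gcd' (by norm_num) 3) ?_
    rw [hcard]
    exact Dvd.dvd.mul_right (Dvd.dvd.mul_right (Dvd.dvd.mul_right (Dvd.dvd.mul_right
      (Dvd.dvd.mul_left (h.dvd_add (j := 5) (by norm_num) (by norm_num)) _) _) _) _) _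
  have hle : Lie.twistedE6 K (r' ^ f') ≤ Lie.chevE6.group K := genSubgroup_le (by simp [Cfsg.Agent.ChevalleyStructure.Elts.InList]) _
  have := Fact.mk h.prime
  -- the prime relative to `q ^ 2`
  have h2 : Zs ((r' ^ f') ^ 2) f' 5 p :=
    { prime := h.prime
      five := h.five
      ndvd := h.ndvd
      iff := fun j => by
        rw [← pow_mul, h.iff]
        exact ⟨fun h => Nat.dvd_of_mul_dvd_mul_left two_pos h, fun h => Nat.mul_dvd_mul_left 2 h⟩ }
  refine sp_of_out h.prime h.five hd (fun P => ?_) ?_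
  · refine cyc_of_hom (inclusion hle) (inclusion_injective hle) (fun Q => ?_) P
    exact cyc_chev hK (by norm_num) h2 (Cfsg.Lie.chevE6, [2, 5, 6, 8, 9, 12]) (by simp)
      (not_dvd_prod h.prime (by omega) (by decide)) (hd.trans (Subgroup.card_dvd_of_le hle)) (by decide) Q
  · rw [ho]
    exact h.ndvd_mul (h.ndvd_mul (h.not_dvd_of_le two_pos (by norm_num)) (h.not_dvd_gcd' (by norm_num) 3)) h.ndvd

theorem sp_ree (F : Type) [Field F] [Fintype F] (m : ℕ) (hm : 1 ≤ m) (hF : Fintype.card F = 3 ^ (2 * m + 1)) :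
    SP ↥(Lie.twistedG2 F (3 ^ m)) := by
  have ho := O.ree F m hm hF
  have hcard := T.ree F m hm hF
  obtain ⟨p, h, hlt⟩ := exists_zs' Nat.prime_three (f := 2 * m + 1) (by omega) (e := 6) (by omega) (by omega)
  have hd : p ∣ Nat.card ↥(Lie.twistedG2 F (3 ^ m)) := by
    rw [hcard]
    exact Dvd.dvd.mul_left (h.dvd_add (by norm_num) (by norm_num)) _
  have hle : Lie.twistedG2 F (3 ^ m) ≤ Lie.chevG2.group F := genSubgroup_le (by simp [Cfsg.Agent.ChevalleyStructure.Elts.InList]) _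
  have := Fact.mk h.prime
  refine sp_of_out h.prime h.five hd (fun P => ?_) ?_
  · refine cyc_of_hom (inclusion hle) (inclusion_injective hle) (fun Q => ?_) P
    exact cyc_chev hF (by norm_num) h (Cfsg.Lie.chevG2, [2, 6]) (by simp)
      (not_dvd_prod h.prime (by omega) (by decide)) (hd.trans (Subgroup.card_dvd_of_le hle)) (by decide) Q
  · rw [ho]
    exact h.ndvd

theorem sp_tf4 (F : Type) [Field F] [Fintype F] (m : ℕ) (hm : 1 ≤ m) (hF : Fintype.card F = 2 ^ (2 * m + 1)) :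
    SP ↥(Lie.twistedF4 F (2 ^ m)) := by
  have ho := O.tf4 F m hm hF
  have hcard := T.tf4 F m hm hF
  obtain ⟨p, h, hlt⟩ := exists_zs' Nat.prime_two (f := 2 * m + 1) (by omega) (e := 12) (by omega) (by omega)
  have hd : p ∣ Nat.card ↥(Lie.twistedF4 F (2 ^ m)) := by
    rw [hcard]
    exact Dvd.dvd.mul_left (h.dvd_add (by norm_num) (by norm_num)) _
  have hle : Lie.twistedF4 F (2 ^ m) ≤ Lie.chevF4.group F := genSubgroup_le (by simp [Cfsg.Agent.ChevalleyStructure.Elts.InList]) _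
  have := Fact.mk h.prime
  refine sp_of_out h.prime h.five hd (fun P => ?_) ?_
  · refine cyc_of_hom (inclusion hle) (inclusion_injective hle) (fun Q => ?_) P
    exact cyc_chev hF (by norm_num) h (Cfsg.Lie.chevF4, [2, 6, 8, 12]) (by simp)
      (not_dvd_prod h.prime (by omega) (by decide)) (hd.trans (Subgroup.card_dvd_of_le hle)) (by decide) Q
  · rw [ho]
    exact h.ndvd

end

end Cfsg.Agent.H124.Spec
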